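import Cfsg.Agent.Lib.H40.CF24.Eps
import Cfsg.Agent.Lib.H40.CocNet
import Cfsg.Agent.Lib.H35.NF24.Net
set_option autoImplicit false
set_option maxRecDepth 100000
set_option linter.all false
set_option Elab.async false
namespace H40.CF24
open H35.TC H35.Net H40.CocNet
open H35.TCF24A (Lt)
/-- networks -/
noncomputable def nl : Lt → List (ℕ × ℕ)
  | .l => H35.NF24.nl_l
  | .k => H35.NF24.nl_k
  | .a => H35.NF24.nl_a
  | .b => H35.NF24.nl_b
  | .c => H35.NF24.nl_c
  | .d => H35.NF24.nl_d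
  | .e => H35.NF24.nl_e
  | .f => H35.NF24.nl_f
  | .g => H35.NF24.nl_g
  | .j => H35.NF24.nl_j
  | .h => H35.NF24.nl_h
  | .i => H35.NF24.nl_i
/-- first planes -/
noncomputable def e1 : Lt → ℕ
  | .l => e1_l
  | .k => e1_k
  | .a => e1_a
  | .b => e1_b
  | .c => e1_c
  | .d => e1_d
  | .e => e1_e
  | .f => e1_f
  | .g => e1_g
  | .j => e1_j
  | .h => e1_h
  | .i => e1_i
/-- second planes -/
noncomputable def e2 : Lt → ℕ
  | .l => e2_l
  | .k => e2_k
  | .a => e2_a
  | .b => e2_b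
  | .c => e2_c
  | .d => e2_d
  | .e => e2_e
  | .f => e2_f
  | .g => e2_g
  | .j => e2_j
  | .h => e2_h
  | .i => e2_i
theorem dj (x : Lt) : Dj (e1 x) (e2 x) := by
  apply dj_of
  cases x <;> decide +kernel
theorem bp (x : Lt) : BP (2 ^ 19) (runNet (nl x)) (H35.NF24.π x) := by
  cases x
  · exact H35.NF24.hbp .l
  · exact H35.NF24.hbp .k
  · exact H35.NF24.hbp .a
  · exact H35.NF24.hbp .b
  · exact H35.NF24.hbp .c
  · exact H35.NF24.hbp .d
  · exact H35.NF24.hbp .e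
  · exact H35.NF24.hbp .f
  · exact H35.NF24.hbp .g
  · exact H35.NF24.hbp .j
  · exact H35.NF24.hbp .h
  · exact H35.NF24.hbp .i
end H40.CF24
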