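import Cfsg.Agent.Lib.H40.CF24.Net
set_option autoImplicit false
set_option maxRecDepth 100000
set_option linter.all false
set_option Elab.async false
namespace H40.CF24
open H35.TC H35.Net H40.CocNet
open H35.TCF24A (Lt)
theorem p_l_l : seg nl e1 e2 [.l, .l] true 0 0 0 0 = true := by decide +kernel
theorem p_l_k : seg nl e1 e2 [.l, .k, .l, .k, .l, .k] true 0 0 0 0 = true := by decide +kernel
theorem p_l_a : seg nl e1 e2 [.l, .a, .l, .a] true 0 0 0 0 = true := by decide +kernel
theorem p_l_b : seg nl e1 e2 [.l, .b, .l, .b] true 0 0 0 0 = true := by decide +kernel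
theorem p_l_c : seg nl e1 e2 [.l, .c, .l, .c] true 0 0 0 0 = true := by decide +kernel
theorem p_l_d : seg nl e1 e2 [.l, .d, .l, .d] true 0 0 0 0 = true := by decide +kernel
theorem p_l_e : seg nl e1 e2 [.l, .e, .l, .e] true 0 0 0 0 = true := by decide +kernel
theorem p_l_f : seg nl e1 e2 [.l, .f, .l, .f] true 0 0 0 0 = true := by decide +kernel
theorem p_l_g : seg nl e1 e2 [.l, .g, .l, .g] true 0 0 0 0 = true := by decide +kernel
theorem p_l_j : seg nl e1 e2 [.l, .j, .l, .j] true 0 0 0 0 = true := by decide +kernel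
theorem p_l_h : seg nl e1 e2 [.l, .h, .l, .h] true 0 0 0 0 = true := by decide +kernel
theorem p_l_i : seg nl e1 e2 [.l, .i, .l, .i] true 0 0 0 0 = true := by decide +kernel
theorem p_k_k : seg nl e1 e2 [.k, .k] true 0 0 0 0 = true := by decide +kernel
theorem p_k_a : seg nl e1 e2 [.k, .a, .k, .a, .k, .a] true 0 0 0 0 = true := by decide +kernel
theorem p_k_b : seg nl e1 e2 [.k, .b, .k, .b] true 0 0 0 0 = true := by decide +kernel
theorem p_k_c : seg nl e1 e2 [.k, .c, .k, .c] true 0 0 0 0 = true := by decide +kernel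
theorem p_k_d : seg nl e1 e2 [.k, .d, .k, .d] true 0 0 0 0 = true := by decide +kernel
theorem p_k_e : seg nl e1 e2 [.k, .e, .k, .e] true 0 0 0 0 = true := by decide +kernel
theorem p_k_f : seg nl e1 e2 [.k, .f, .k, .f] true 0 0 0 0 = true := by decide +kernel
theorem p_k_g : seg nl e1 e2 [.k, .g, .k, .g] true 0 0 0 0 = true := by decide +kernel
end H40.CF24
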