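import Cfsg.Agent.Lib.H40.CF24.Net
set_option autoImplicit false
set_option maxRecDepth 100000
set_option linter.all false
set_option Elab.async false
namespace H40.CF24
open H35.TC H35.Net H40.CocNet
open H35.TCF24A (Lt)
theorem p_k_j : seg nl e1 e2 [.k, .j, .k, .j] true 0 0 0 0 = true := by decide +kernel
theorem p_k_h : seg nl e1 e2 [.k, .h, .k, .h] true 0 0 0 0 = true := by decide +kernel
theorem p_k_i : seg nl e1 e2 [.k, .i, .k, .i] true 0 0 0 0 = true := by decide +kernel
theorem p_a_a : seg nl e1 e2 [.a, .a] true 0 0 0 0 = true := by decide +kernel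
theorem p_a_b : seg nl e1 e2 [.a, .b, .a, .b, .a, .b] true 0 0 0 0 = true := by decide +kernel
theorem p_a_c : seg nl e1 e2 [.a, .c, .a, .c] true 0 0 0 0 = true := by decide +kernel
theorem p_a_d : seg nl e1 e2 [.a, .d, .a, .d] true 0 0 0 0 = true := by decide +kernel
theorem p_a_e : seg nl e1 e2 [.a, .e, .a, .e] true 0 0 0 0 = true := by decide +kernel
theorem p_a_f : seg nl e1 e2 [.a, .f, .a, .f] true 0 0 0 0 = true := by decide +kernel
theorem p_a_g : seg nl e1 e2 [.a, .g, .a, .g] true 0 0 0 0 = true := by decide +kernel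
theorem p_a_j : seg nl e1 e2 [.a, .j, .a, .j] true 0 0 0 0 = true := by decide +kernel
theorem p_a_h : seg nl e1 e2 [.a, .h, .a, .h] true 0 0 0 0 = true := by decide +kernel
theorem p_a_i : seg nl e1 e2 [.a, .i, .a, .i] true 0 0 0 0 = true := by decide +kernel
theorem p_b_b : seg nl e1 e2 [.b, .b] true 0 0 0 0 = true := by decide +kernel
theorem p_b_c : seg nl e1 e2 [.b, .c, .b, .c, .b, .c] true 0 0 0 0 = true := by decide +kernel
theorem p_b_d : seg nl e1 e2 [.b, .d, .b, .d] true 0 0 0 0 = true := by decide +kernel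
theorem p_b_e : seg nl e1 e2 [.b, .e, .b, .e] true 0 0 0 0 = true := by decide +kernel
theorem p_b_f : seg nl e1 e2 [.b, .f, .b, .f] true 0 0 0 0 = true := by decide +kernel
theorem p_b_g : seg nl e1 e2 [.b, .g, .b, .g] true 0 0 0 0 = true := by decide +kernel
theorem p_b_j : seg nl e1 e2 [.b, .j, .b, .j] true 0 0 0 0 = true := by decide +kernel
end H40.CF24
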