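import Cfsg.Agent.Lib.H40.CF24.Net
set_option autoImplicit false
set_option maxRecDepth 100000
set_option linter.all false
set_option Elab.async false
namespace H40.CF24
open H35.TC H35.Net H40.CocNet
open H35.TCF24A (Lt)
theorem p_b_h : seg nl e1 e2 [.b, .h, .b, .h] true 0 0 0 0 = true := by decide +kernel
theorem p_b_i : seg nl e1 e2 [.b, .i, .b, .i] true 0 0 0 0 = true := by decide +kernel
theorem p_c_c : seg nl e1 e2 [.c, .c] true 0 0 0 0 = true := by decide +kernel
theorem p_c_d : seg nl e1 e2 [.c, .d, .c, .d, .c, .d] true 0 0 0 0 = true := by decide +kernel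
theorem p_c_e : seg nl e1 e2 [.c, .e, .c, .e] true 0 0 0 0 = true := by decide +kernel
theorem p_c_f : seg nl e1 e2 [.c, .f, .c, .f] true 0 0 0 0 = true := by decide +kernel
theorem p_c_g : seg nl e1 e2 [.c, .g, .c, .g] true 0 0 0 0 = true := by decide +kernel
theorem p_c_j : seg nl e1 e2 [.c, .j, .c, .j] true 0 0 0 0 = true := by decide +kernel
theorem p_c_h : seg nl e1 e2 [.c, .h, .c, .h] true 0 0 0 0 = true := by decide +kernel
theorem p_c_i : seg nl e1 e2 [.c, .i, .c, .i] true 0 0 0 0 = true := by decide +kernel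
theorem p_d_d : seg nl e1 e2 [.d, .d] true 0 0 0 0 = true := by decide +kernel
theorem p_d_e : seg nl e1 e2 [.d, .e, .d, .e, .d, .e] true 0 0 0 0 = true := by decide +kernel
theorem p_d_f : seg nl e1 e2 [.d, .f, .d, .f] true 0 0 0 0 = true := by decide +kernel
theorem p_d_g : seg nl e1 e2 [.d, .g, .d, .g] true 0 0 0 0 = true := by decide +kernel
theorem p_d_j : seg nl e1 e2 [.d, .j, .d, .j] true 0 0 0 0 = true := by decide +kernel
theorem p_d_h : seg nl e1 e2 [.d, .h, .d, .h, .d, .h] true 0 0 0 0 = true := by decide +kernel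
theorem p_d_i : seg nl e1 e2 [.d, .i, .d, .i] true 0 0 0 0 = true := by decide +kernel
theorem p_e_e : seg nl e1 e2 [.e, .e] true 0 0 0 0 = true := by decide +kernel
theorem p_e_f : seg nl e1 e2 [.e, .f, .e, .f, .e, .f] true 0 0 0 0 = true := by decide +kernel
theorem p_e_g : seg nl e1 e2 [.e, .g, .e, .g] true 0 0 0 0 = true := by decide +kernel
end H40.CF24
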