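import Cfsg.Agent.Lib.H40.CF24.Net
set_option autoImplicit false
set_option maxRecDepth 100000
set_option linter.all false
set_option Elab.async false
namespace H40.CF24
open H35.TC H35.Net H40.CocNet
open H35.TCF24A (Lt)
theorem p_e_j : seg nl e1 e2 [.e, .j, .e, .j] true 0 0 0 0 = true := by decide +kernel
theorem p_e_h : seg nl e1 e2 [.e, .h, .e, .h] true 0 0 0 0 = true := by decide +kernel
theorem p_e_i : seg nl e1 e2 [.e, .i, .e, .i] true 0 0 0 0 = true := by decide +kernel
theorem p_f_f : seg nl e1 e2 [.f, .f] true 0 0 0 0 = true := by decide +kernel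
theorem p_f_g : seg nl e1 e2 [.f, .g, .f, .g, .f, .g] true 0 0 0 0 = true := by decide +kernel
theorem p_f_j : seg nl e1 e2 [.f, .j, .f, .j] true 0 0 0 0 = true := by decide +kernel
theorem p_f_h : seg nl e1 e2 [.f, .h, .f, .h] true 0 0 0 0 = true := by decide +kernel
theorem p_f_i : seg nl e1 e2 [.f, .i, .f, .i] true 0 0 0 0 = true := by decide +kernel
theorem p_g_g : seg nl e1 e2 [.g, .g] true 0 0 0 0 = true := by decide +kernel
theorem p_g_j : seg nl e1 e2 [.g, .j, .g, .j, .g, .j] true 0 0 0 0 = true := by decide +kernel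
theorem p_g_h : seg nl e1 e2 [.g, .h, .g, .h] true 0 0 0 0 = true := by decide +kernel
theorem p_g_i : seg nl e1 e2 [.g, .i, .g, .i] true 0 0 0 0 = true := by decide +kernel
theorem p_j_j : seg nl e1 e2 [.j, .j] true 0 0 0 0 = true := by decide +kernel
theorem p_j_h : seg nl e1 e2 [.j, .h, .j, .h] true 0 0 0 0 = true := by decide +kernel
theorem p_j_i : seg nl e1 e2 [.j, .i, .j, .i] true 0 0 0 0 = true := by decide +kernel
theorem p_h_h : seg nl e1 e2 [.h, .h] true 0 0 0 0 = true := by decide +kernel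
theorem p_h_i : seg nl e1 e2 [.h, .i, .h, .i, .h, .i] true 0 0 0 0 = true := by decide +kernel
theorem p_i_i : seg nl e1 e2 [.i, .i] true 0 0 0 0 = true := by decide +kernel
end H40.CF24
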